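import Cfsg.Agent.H941.CY.Three
import Cfsg.Agent.H666.CY.PslFl

/-!
# S4829, `PSL_n(q)`, `d = ord_p(q) ≥ 2`: the three-step counts on `Fl F n k l` (helper941)

`cnt_three` : for `a : A0 F n` centralizing a Sylow `p`-subgroup of `PSL_n(F)`, `d` odd, `r = n % d` even,
`N 1 (r + 2) - N 1 (r + 1) - N 0 (r + 2) + N 0 r = 1` modulo `p`, `N k l` the number of the `a`-fixed flags `(k, l)`.
Also `cnt_r`, `cnt_r1`, `cnt_one_r1`, `cnt_one_r2`, `cnt_same`, `cnt_bot`.
-/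

set_option autoImplicit false

open Matrix Module Subgroup

namespace Cfsg.Agent.H941.CY

open Cfsg.Agent.H932.BR (Om)
open Cfsg.Agent.H666.CY

universe u

variable {p : ℕ} [hp : Fact p.Prime] {F : Type u} [Field F] {n : ℕ}

/-- the fixed flags -/
theorem card_fixedBy (k l : ℕ) (a : A0 F n) :
    Nat.card (MulAction.fixedBy (Fl F n k l) a) = Nat.card (FC (lat a) k l) := by
  refine Nat.card_congr
    { toFun := fun x => ⟨(x.1.1.1.1, x.1.1.2.1), ⟨x.1.2, x.1.1.1.2, x.1.1.2.2⟩,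
        congrArg (fun y : Fl F n k l => y.1.1.1) x.2, congrArg (fun y : Fl F n k l => y.1.2.1) x.2⟩
      invFun := fun x => ⟨⟨(⟨x.1.1, x.2.1.2.1⟩, ⟨x.1.2, x.2.1.2.2⟩), x.2.1.1⟩,
        Subtype.ext (Prod.ext (Subtype.ext x.2.2.1) (Subtype.ext x.2.2.2))⟩
      left_inv := fun x => rfl
      right_inv := fun x => rfl }

omit hp in
/-- the lattice automorphism of `a` commutes with the Sylow `p`-subgroup which `a` centralizes -/
theorem lat_comm' {Q : Sylow p (ProjectiveSpecialLinearGroup (Fin n) F)} {a : A0 F n}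
    (hc : ∀ x ∈ Q, (a : MulAut (ProjectiveSpecialLinearGroup (Fin n) F)) x = x) (s : SpecialLinearGroup (Fin n) F)
    (hs : (QuotientGroup.mk s : ProjectiveSpecialLinearGroup (Fin n) F) ∈ Q) (U : Submodule F (Fin n → F)) :
    lat a (U.map (SpecialLinearGroup.toLin' s).toLinearMap) =
      (lat a U).map (SpecialLinearGroup.toLin' s).toLinearMap :=
  lat_comm a (s := s) (t := s) (hc _ hs).symm U

section counts

variable [Fintype F]

local notation "𝔡" => orderOf (Fintype.card F : ZMod p)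

theorem cnt_all (hd2 : 2 ≤ 𝔡) (Q : Sylow p (ProjectiveSpecialLinearGroup (Fin n) F)) (a : A0 F n)
    (hc : ∀ x ∈ Q, (a : MulAut (ProjectiveSpecialLinearGroup (Fin n) F)) x = x) :
    (Nat.card (MulAction.fixedBy (Fl F n 0 (n % 𝔡)) a) : ZMod p) = 1 ∧
    (n % 𝔡 + 1 < 𝔡 → ∀ k, (Nat.card (MulAction.fixedBy (Fl F n k (n % 𝔡 + 1)) a) : ZMod p) = 0) ∧
    (Nat.card (MulAction.fixedBy (Fl F n 1 (n % 𝔡 + 1)) a) : ZMod p) = 0 ∧
    (n % 𝔡 + 2 ≠ 𝔡 → (Nat.card (MulAction.fixedBy (Fl F n 1 (n % 𝔡 + 2)) a) : ZMod p) =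
      Nat.card (MulAction.fixedBy (Fl F n 0 (n % 𝔡 + 2)) a)) := by
  simp only [card_fixedBy]
  exact values (by rw [Nat.card_eq_fintype_card]) hd2 Q (lat a) (finrank_lat a) (lat_comm' hc)

/-- **the three-step combination** -/
theorem cnt_three (hd2 : 2 ≤ 𝔡) (ho : Odd 𝔡) (he : Even (n % 𝔡))
    (Q : Sylow p (ProjectiveSpecialLinearGroup (Fin n) F)) (a : A0 F n)
    (hc : ∀ x ∈ Q, (a : MulAut (ProjectiveSpecialLinearGroup (Fin n) F)) x = x) :
    (Nat.card (MulAction.fixedBy (Fl F n 1 (n % 𝔡 + 2)) a) : ZMod p) -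
      Nat.card (MulAction.fixedBy (Fl F n 1 (n % 𝔡 + 1)) a) -
      Nat.card (MulAction.fixedBy (Fl F n 0 (n % 𝔡 + 2)) a) +
      Nat.card (MulAction.fixedBy (Fl F n 0 (n % 𝔡)) a) = 1 := by
  simp only [card_fixedBy]
  exact values_three (by rw [Nat.card_eq_fintype_card]) hd2 ho he Q (lat a) (finrank_lat a) (lat_comm' hc)

end counts

end Cfsg.Agent.H941.CY
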